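import Cfsg.Agent.BX.Five.T47
import Cfsg.Agent.BX.Max.Prim
import Cfsg.Agent.BX.Frame.Fr5W
import Cfsg.Agent.BX.Iso.Todd
set_option linter.all false

/-!
# `M₁₁` in the Baby Monster: words, Todd's relations, the test at 11 (helper23)
-/

set_option autoImplicit false
set_option maxRecDepth 100000
set_option Elab.async false

namespace Cfsg.Agent.BX.M11

open Cfsg.Agent.BabyM.Conc Cfsg.Agent.H819.U33 Cfsg.Agent.BMx.Fast Cfsg.Agent.BX.Max Subgroup
open Cfsg.Agent.BX.Frame.Fr5 (wv)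
open Cfsg.Agent.BabyM.TransInv (winv)

/-- `a`, of order 11 -/
def wa : List Ltr :=
  [.Z7, .Z6, .Z4, .Z3, .Z1, .X10, .X8, .X7, .X4, .X1, .X0, .y5, .y4, .y2, .y1, .hi, .p8, .hi, .p8, .hi, .p5, .hi,
   .p, .hi, .p2, .xii, .p, .xii, .y1, .y10, .hi, .xii, .y5, .taui, .y1, .xii, .p10, .xii, .y5, .p10, .xii, .y4, .y8,
   .taui, .xii, .y1, .p, .xii, .y4, .p, .xii, .y3, .y4, .taui, .y1, .p8, .xii, .p3, .xii, .y2, .taui, .xii, .hi,
   .p6, .xii, .p2, .y10, .taui, .xii, .y2, .p7]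

/-- `c`, of order 4 -/
def wc : List Ltr :=
  [.Z10, .Z9, .Z7, .Z6, .Z3, .X9, .X8, .X7, .X5, .X4, .X1, .X0, .y10, .y9, .y8, .y3, .hi, .p, .hi, .p10, .hi, .p7,
   .hi, .p6, .hi, .p6, .hi, .xii, .y2, .hi, .p8, .xii, .y10, .p2, .taui, .xii, .y1, .p, .xii, .p, .xii, .y3, .tau,
   .y1, .xii, .p10, .xii, .y1, .p10, .xii, .y10, .taui, .X0, .p10, .xii, .p9, .xii, .y9, .taui, .xii, .p2, .xii,
   .y10, .p6, .xii, .y4, .y10, .tau, .xii, .p5]

/-- `σ`, of order 5 -/
def wsg : List Ltr :=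
  [.z, .Z10, .Z7, .Z4, .Z3, .Z1, .Z0, .X7, .X4, .X1, .X0, .y6, .y2, .hi, .p, .hi, .p3, .hi, .p, .hi, .p4, .hi, .p6,
   .hi, .xii, .y2, .p, .xii, .p4, .hi, .p5, .tau, .y1, .xii, .p10, .xii, .y5, .p10, .xii, .y9, .tau, .xii, .p, .xii,
   .y2, .hi, .xii, .y2, .y7, .tau, .X0, .p10, .xii, .y6, .p10, .xii, .taui, .xii, .p9, .xii, .y3, .y9, .hi, .xii,
   .y8, .tau, .xii, .p9, .xii, .y9]

/-- `ι`, of order 2, inverting `a` -/
def wio : List Ltr :=
  [.Z10, .Z8, .Z3, .Z2, .Z1, .Z0, .X5, .X1, .y8, .y3, .hi, .p4, .hi, .p3, .hi, .p4, .hi, .p6, .hi, .xii, .p, .xii,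
   .y10, .p4, .tau, .y1, .xii, .p10, .xii, .y1, .p10, .xii, .y1, .y5, .tau, .xii, .y1, .p, .xii, .p, .xii, .y7,
   .y10, .tau, .X0, .p10, .xii, .y10, .p10, .xii, .y7, .taui, .xii, .p4, .xii, .y8, .y10, .p9, .xii, .y4, .taui,
   .xii, .p3, .xii, .y2]

/-- `b`, of order 2, centralising `a` -/
def wb : List Ltr :=
  [.Z9, .Z7, .Z4, .Z3, .Z2, .Z1, .X9, .X3, .X2, .X1, .X0, .y10, .y3, .p5, .hi, .p8, .hi, .p, .hi, .p6, .hi, .p3,
   .hi, .p9, .xii, .y2, .p2, .hi, .xii, .y8, .tau, .xii, .y6, .p2, .xii, .y10, .p2, .hi, .xii, .y8, .tau, .xii, .p2,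
   .xii, .y2, .p6, .xii, .y1, .y4, .tau, .xii, .y6, .p3]

/-- the conjugating word of the test of `σ` -/
def xsg : List Ltr :=
  [.z, .Z7, .Z5, .Z4, .Z3, .Z0, .X8, .X4, .X3, .X2, .X0, .y10, .y7, .y6, .y5, .hi, .p4, .hi, .p7, .hi, .p8, .hi,
   .p6, .xii, .p, .xii, .p7, .xii, .y8, .taui, .xii, .p, .xii, .y1, .hi, .xii, .y5, .y9, .y10, .taui, .p7, .xii,
   .p5, .hi, .xii, .y7, .p9, .y9, .tau, .xii, .y2, .p8, .xii, .y6, .p2, .xii, .y2, .tau]

/-- the conjugating word of the test of `ι` -/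
def xio : List Ltr :=
  [.Z9, .Z8, .Z6, .Z4, .Z2, .Z1, .Z0, .X9, .X7, .X6, .X2, .X0, .y7, .y6, .y4, .y2, .p4, .hi, .p5, .hi, .p7, .hi,
   .p5, .hi, .p8, .hi, .p8, .hi, .xii, .p, .xii, .p9, .y1, .taui, .xii, .y6, .p, .xii, .y4, .p, .xii, .y1, .tau,
   .xii, .p9, .xii, .y7, .p3, .xii, .y3, .tau, .xii, .p9, .xii, .p8, .y4, .xii, .y3, .tau, .xii, .p4]

theorem o_a : orderOf (g wa) = 11 := orderOf_of_ordF (by decide +kernel)

theorem y_five : g wv ^ 5 = 1 := pow_of_powF (by decide +kernel)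

theorem c_four : g wc ^ 4 = 1 := pow_of_powF (by decide +kernel)

theorem a_c : (g wa * g wc) ^ 3 = 1 := by
  rw [← g_append]
  exact pow_of_powF (by decide +kernel)

theorem y_a : g wv * g wa = g wa ^ 4 * g wv := by
  rw [← g_pw, ← g_append, ← g_append]
  exact eq_of_eqF (by decide +kernel)

theorem c_y : g wc * g wv = g wv ^ 2 * g wc := by
  rw [← g_pw, ← g_append, ← g_append]
  exact eq_of_eqF (by decide +kernel)

theorem sg_a : g wsg * g wa = g wa * g wsg := by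
  rw [← g_append, ← g_append]
  exact eq_of_eqF (by decide +kernel)

theorem sg_y : g wsg * g wv = g wv * g wsg := by
  rw [← g_append, ← g_append]
  exact eq_of_eqF (by decide +kernel)

theorem sg_five : g wsg ^ 5 = 1 := pow_of_powF (by decide +kernel)

theorem b_a : g wb * g wa = g wa * g wb := by
  rw [← g_append, ← g_append]
  exact eq_of_eqF (by decide +kernel)

theorem b_b : g wb * g wb = 1 := by
  rw [← pow_two]
  exact pow_of_powF (by decide +kernel)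

theorem b_y : g wb * g wv ≠ g wv * g wb := by
  rw [← g_append, ← g_append]
  exact ne_of_neF (by decide +kernel)

theorem io_io : g wio * g wio = 1 := by
  rw [← pow_two]
  exact pow_of_powF (by decide +kernel)

theorem io_a : g wio * g wa = (g wa)⁻¹ * g wio := by
  rw [← g_winv, ← g_append, ← g_append]
  exact eq_of_eqF (by decide +kernel)

theorem io_y : g wio * g wv = g wv * g wio := by
  rw [← g_append, ← g_append]
  exact eq_of_eqF (by decide +kernel)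

theorem io_sg : g wio * g wsg = g wsg * g wio := by
  rw [← g_append, ← g_append]
  exact eq_of_eqF (by decide +kernel)

/-- the group -/
noncomputable def HH : Subgroup G := closure {g wa, g wv, g wc}

theorem a_mem : g wa ∈ HH := subset_closure (by simp)

theorem y_mem : g wv ∈ HH := subset_closure (by simp)

theorem c_mem : g wc ∈ HH := subset_closure (by simp)

theorem mem4 : ∀ s ∈ [wa, wv, wc, winv wc], g s ∈ HH := by
  intro s hs
  simp only [List.mem_cons, List.not_mem_nil, or_false] at hs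
  rcases hs with rfl | rfl | rfl | rfl
  exacts [a_mem, y_mem, c_mem, g_winv wc ▸ inv_mem c_mem]

theorem big (h47 : Gen47 G) : Big HH := h47.big a_mem (by rw [o_a]; norm_num)

theorem tst_sg (h47 : Gen47 G) : Tst HH (g wsg) :=
  Five.tst_of (big h47) mem4 (ix := [0, 1, 3, 3]) (x := xsg) (b := true) (by decide +kernel)

theorem tst_io (h47 : Gen47 G) : Tst HH (g wio) :=
  Five.tst_of (big h47) mem4 (ix := [0, 1, 2, 1, 3, 0, 2, 4, 0, 3, 1, 3, 2]) (x := xio) (b := false) (by decide +kernel)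

/-- **The test at 11.** -/
theorem nt11 (L : Loc G) (h47 : Gen47 G) : NT HH 11 := by
  have : Finite G := Nat.finite_of_card_ne_zero (by rw [L.card]; decide)
  exact Prim.nt11 (e := 4) (P := True) o_a (L.q11 _ o_a) a_mem y_mem y_a sg_a sg_five sg_y b_a b_b b_y (tst_sg h47)
    (fun _ => ⟨g wio, io_io, io_a, io_y, io_sg, tst_io h47⟩) (by decide +kernel)

/-- Todd's relations -/
theorem rel : Iso.Todd.RM (g wa) (g wv) (g wc) :=
  ⟨o_a ▸ pow_orderOf_eq_one _, y_five, c_four, a_c, by rw [y_a, mul_inv_cancel_right], by rw [c_y, mul_inv_cancel_right]⟩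

/-- **The group is `M₁₁`.** -/
theorem iso : Nonempty (HH ≃* TM) :=
  Iso.Todd.isoM rel fun h => by have := o_a; rw [h, orderOf_one] at this; exact absurd this (by decide)

/-- `ExM` from the test at 5 -/
theorem ex_of (L : Loc G) (h47 : Gen47 G) (n5 : NT HH 5) : ExM G := ⟨HH, iso, nt11 L h47, n5⟩

end Cfsg.Agent.BX.M11
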