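import Cfsg.Agent.BX.P11.Fields
import Cfsg.Agent.BX.M11.Psu
import Cfsg.Agent.BX.Max.Iface
import Cfsg.Agent.S1606
import Cfsg.Agent.S0387
set_option linter.all false

/-!
# S5527: the fields `m22` and `u62` of `BX.Max.Sieve` (helper23)
-/

set_option autoImplicit false
set_option maxRecDepth 100000

namespace Cfsg.Agent.BX.M11

open Cfsg Subgroup Cfsg.Agent.OrdDiv Cfsg.Agent.H940.Eng
open scoped Pointwise

theorem sqD_mem : Spor.squareDodecad ∈ dodecads :=
  ⟨⟨qrWord 0, Submodule.subset_span (Or.inl ⟨0, rfl⟩), rfl⟩, by decide +kernel⟩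

theorem zero_mem : (some 0 : GolayPt) ∈ Spor.squareDodecad := by decide +kernel

/-- the two descriptions of `M₁₁` -/
def eqM11 : ↥(MulAction.stabilizer Cfsg.M24 Cfsg.Spor.squareDodecad ⊓
    MulAction.stabilizer Cfsg.M24 (some 0 : GolayPt)) ≃* Cfsg.Spor.M11 where
  toFun g := ⟨((g : Cfsg.M24) : Equiv.Perm GolayPt), ⟨(g : Cfsg.M24).2, g.2.1⟩, g.2.2⟩
  invFun g := ⟨⟨(g : Equiv.Perm GolayPt), g.2.1.1⟩, g.2.1.2, g.2.2⟩
  left_inv _ := rfl
  right_inv _ := rfl
  map_mul' _ _ := rfl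

theorem card_M11 : Nat.card Spor.M11 = 7920 := by
  rw [← Nat.card_congr eqM11.toEquiv]
  exact Cfsg.Agent.S0387.result _ sqD_mem _ zero_mem

/-- the two descriptions of `M₂₂` -/
def eqM22 : ↥(MulAction.stabilizer Cfsg.M24 (none : GolayPt) ⊓
    MulAction.stabilizer Cfsg.M24 (some 0 : GolayPt)) ≃* Cfsg.Spor.M22 where
  toFun g := ⟨((g : Cfsg.M24) : Equiv.Perm GolayPt), ⟨(g : Cfsg.M24).2, g.2.1⟩, g.2.2⟩
  invFun g := ⟨⟨(g : Equiv.Perm GolayPt), g.2.1.1⟩, g.2.1.2, g.2.2⟩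
  left_inv _ := rfl
  right_inv _ := rfl
  map_mul' _ _ := rfl

theorem m22 (B : Base) (S : Type) [Group S] [Finite S] (hS : IsSimpleGroup S) (hc : Nat.card S = 443520)
    (K : Subgroup S) : IsEmpty (K ≃* Max.TM) := by
  have h : Real .m22 S := P11.real_of_card B hS (l := [(2, 7), (3, 2), (5, 1), (7, 1), (11, 1)]) (by decide +kernel)
    (by norm_num) hc (by decide +kernel)
  obtain ⟨e⟩ := h
  refine ⟨fun f => ?_⟩
  have h1 : Nat.card K = 7920 := (Nat.card_congr f.toEquiv).trans card_M11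
  have h2 := K.card_mul_index
  rw [h1, hc] at h2
  have h3 : K.index = 56 := by omega
  refine (Cfsg.Agent.S1606.result none (some 0) (by decide) (K.comap (eqM22.trans e.symm).toMonoidHom)).1 ?_
  rw [index_comap_of_surjective _ (eqM22.trans e.symm).surjective, h3]

theorem u62 (B : Base) (S : Type) [Group S] [Finite S] (hS : IsSimpleGroup S) (hc : Nat.card S = 9196830720) :
    ∃ s : S, orderOf s = 15 := by
  have h : Real (.psu 6 2) S := P11.real_of_card B hS (l := [(2, 15), (3, 6), (5, 1), (7, 1), (11, 1)])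
    (by decide +kernel) (by norm_num) hc (by decide +kernel)
  obtain ⟨F, _, _, hF, ⟨e⟩⟩ := h
  exact psu_six hF e

end Cfsg.Agent.BX.M11
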